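import Cfsg.Agent.Lib.UW.WD
import Cfsg.Agent.Lib.US7.L3

/-! # Invariant lines in the Weil module (port of `US7/L1`) -/

set_option autoImplicit false
set_option linter.unusedSectionVars false

namespace Cfsg.Lib.UW

open Module Cfsg.Lib.Unitary Cfsg.Lib.Char LinearMap ComplexConjugate Cfsg.Lib.US7

variable {F V : Type*} [Field F] [Fintype F] [AddCommGroup V] [Module F V] [Fintype V] {σ : F →+* F}
  {B : V →ₛₗ[σ] V →ₗ[F] F} {κ : AddChar F ℂ} {W : Type*} [AddCommGroup W] [Module ℂ W]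
  [FiniteDimensional ℂ W] {h : V → End ℂ W} {ρ : UG B →* End ℂ W} {q n t : ℕ}
  {G : Subgroup (V ≃ₗ[F] V)}

variable [Fintype G] {hG : G ≤ UG B}

theorem Ev_inv (D : WQ B κ h ρ) (l : G →* ℂˣ) {g : V ≃ₗ[F] V} (hg : g ∈ G) (v : V) :
    trace ℂ W (Ev ρ hG l * h (g v)) = trace ℂ W (Ev ρ hG l * h v) := by
  have e : h (g v) = rG ρ hG ⟨g, hg⟩ * h v * rG ρ hG ⟨g, hg⟩⁻¹ := by
    rw [show rG ρ hG ⟨g, hg⟩ * h v = h (g v) * rG ρ hG ⟨g, hg⟩ from D.cj ⟨g, hG hg⟩ v, mul_assoc,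
      ← map_mul, mul_inv_cancel, map_one, mul_one]
  rw [e, ← mul_assoc, trace_mul_comm, ← mul_assoc, ← mul_assoc, (rG_Ev l _).1, smul_mul_assoc,
    (rG_Ev l _).2, smul_smul, ← map_mul, inv_mul_cancel, map_one, one_smul]

variable {hZ : ∀ c, scl q F V c ∈ G} {ω ω' : IrrCharacter (Mu q F)} {l l' : G →* ℂˣ}
  {χ χ' : IrrCharacter G}

theorem pair (hσ : IsBar q σ) (D : WQ B κ h ρ) (hB : IsHerm σ B) (L : Ln ρ hG hZ ω l χ) (L' : Ln ρ hG hZ ω' l' χ')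
    (hne : ¬ ∀ g, χ.1 g * ((l g)⁻¹ : ℂˣ) = χ'.1 g * ((l' g)⁻¹ : ℂˣ)) (x y : V) :
    IsIntegral ℤ ((finrank ℂ W * Nat.card G * Nat.card (Mu q F) ^ 2 : ℕ) *
      (trace ℂ W (Ev ρ hG l * h x) * trace ℂ W (Ev ρ hG l' * h y))) := by
  have t := D.toWP.twirl hB (Ev ρ hG l' * h y) (Ev ρ hG l * h x)
  rw [Nat.cast_mul, Nat.cast_mul, mul_assoc (finrank ℂ W : ℂ), mul_comm (finrank ℂ W : ℂ), mul_assoc,
    mul_comm (trace ℂ W _), ← t, Finset.mul_sum]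
  refine IsIntegral.sum _ fun v _ => ?_
  have c1 := card_ne_zero_complex G
  have c2 := card_ne_zero_complex (Mu q F)
  rw [show Ev ρ hG l' * h y * h v * (Ev ρ hG l * h x) * h (-v) =
    Ev ρ hG l' * (h y * h v) * Ev ρ hG l * (h x * h (-v)) by simp only [mul_assoc],
    L.avg hσ L' hne, smul_mul_assoc, map_smul, smul_eq_mul, mul_mul_mul_comm, mul_inv_cancel₀ c1,
    one_mul, Finset.sum_mul, map_sum, Finset.mul_sum]
  refine IsIntegral.sum _ fun g _ => ?_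
  simp only [Pj, Units.smul_def, smul_mul_assoc, mul_smul_comm, map_smul, smul_eq_mul]
  rw [show ∀ a t : ℂ, ((Nat.card (Mu q F) ^ 2 : ℕ) : ℂ) * (a * ((Nat.card (Mu q F) : ℂ)⁻¹ *
    ((Nat.card (Mu q F) : ℂ)⁻¹ * t))) = a * t from fun a t => by push_cast; field_simp]
  refine ((isCharacter_hom (l * l'⁻¹)).isIntegral g).mul ?_
  simp only [Finset.sum_mul, Finset.mul_sum, map_sum, smul_mul_assoc, mul_smul_comm, map_smul,
    smul_eq_mul, rG, MonoidHom.comp_apply, ← map_mul ρ]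
  exact IsIntegral.sum _ fun c _ => IsIntegral.sum _ fun c' _ =>
    (ω.2.conj.isIntegral _).mul ((ω'.2.conj.isIntegral _).mul (D.integral hB _ _ _ _ _ _))

end Cfsg.Lib.UW
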