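import Cfsg.Agent.Lib.UW.L2

/-! # Not all components of the Weil character split (any characteristic) -/

set_option autoImplicit false
set_option linter.unusedSectionVars false

namespace Cfsg.Lib.UW

open Module Cfsg.Lib.Unitary LinearMap ComplexConjugate Finset Cfsg.Lib.US7

variable {F V : Type*} [Field F] [Fintype F] [AddCommGroup V] [Module F V] [Fintype V] {σ : F →+* F}
  {B : V →ₛₗ[σ] V →ₗ[F] F} {κ : AddChar F ℂ} {W : Type*} [AddCommGroup W] [Module ℂ W]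
  [FiniteDimensional ℂ W] {h : V → End ℂ W} {ρ : UG B →* End ℂ W} {q n t : ℕ}
  {G : Subgroup (V ≃ₗ[F] V)}

/-- a map with `g ^ (q+1) = 1` is diagonalisable with eigenvalues in `Mu q F` -/
theorem eq_of_eig (hq : Nat.card (Mu q F) = q + 1) {g : V ≃ₗ[F] V} (hg : g ^ (q + 1) = 1)
    (H : ∀ c : Mu q F, c ≠ 1 → ∀ v, ((c : Fˣ) : F) • g v = v → v = 0) (v : V) : g v = v := by
  classical
  obtain ⟨z, hz⟩ := IsCyclic.exists_ofOrder_eq_natCard (α := Mu q F)
  have p1 : IsPrimitiveRoot ((z : Fˣ) : F) (q + 1) := by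
    rw [IsPrimitiveRoot.coe_units_iff, IsPrimitiveRoot.coe_submonoidClass_iff, ← hq, ← hz]
    exact IsPrimitiveRoot.orderOf z
  have e := Polynomial.X_pow_sub_one_eq_prod (Nat.succ_pos q) p1
  rw [← prod_erase_mul _ _ ((Polynomial.mem_nthRootsFinset (Nat.succ_pos q) _).2 (one_pow _))] at e
  have e2 := congrArg (fun p => Polynomial.aeval (g : End F V) p v) e
  have inj : Function.Injective (Polynomial.aeval (g : End F V)
      (∏ ζ ∈ (Polynomial.nthRootsFinset (q + 1) (1 : F)).erase 1, (Polynomial.X - Polynomial.C ζ))) := by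
    refine prod_induction _ (fun p => Function.Injective (Polynomial.aeval (g : End F V) p))
      (fun a b ha hb => by rw [map_mul]; exact ha.comp hb) (by rw [map_one]; exact fun _ _ e => e) fun ζ hζ => ?_
    have h1 := (Polynomial.mem_nthRootsFinset (Nat.succ_pos q) _).1 (mem_of_mem_erase hζ)
    have h0 : ζ ≠ 0 := by rintro rfl; simp at h1
    refine (injective_iff_map_eq_zero _).2 fun u hu => H ⟨(Units.mk0 ζ h0)⁻¹, inv_mem ((mem_rootsOfUnity _ _).2
      (Units.ext (by simpa using h1)))⟩ (fun e => ne_of_mem_erase hζ ?_) u ?_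
    · simpa using congrArg (fun c : Mu q F => ((c : Fˣ) : F)) e
    · simp only [map_sub, Polynomial.aeval_X, Polynomial.aeval_C, LinearMap.sub_apply, LinearEquiv.coe_coe,
        Module.algebraMap_end_apply, sub_eq_zero] at hu
      simp [hu, h0]
  simp only [map_sub, map_pow, map_mul, Polynomial.aeval_X, map_one, End.mul_apply, LinearMap.sub_apply,
    End.one_apply, LinearEquiv.coe_coe] at e2
  rw [show ((g : End F V) ^ (q + 1)) v = (g ^ (q + 1)) v from by rw [LinearEquiv.pow_apply, End.pow_apply]; rfl,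
    hg] at e2
  exact inj (sub_eq_zero.1 (e2.symm.trans (sub_self v)))

namespace WT

variable {hσ : IsBar q σ} {ω₀ ω ω' : IrrCharacter (Mu q F)} (S : WT q n t hσ B κ h ρ ω₀) [Fintype G]
  {hG : G ≤ UG B} {hZ : ∀ c, scl q F V c ∈ G} {l l' : G →* ℂˣ} {χ χ' : IrrCharacter G}
include S

theorem twist_eq (hω : ω ≠ ω₀) (hω' : ω' ≠ ω₀) (L : Ln ρ hG hZ ω l χ) (L' : Ln ρ hG hZ ω' l' χ')
    {A : Subgroup G} (free : ∀ x ∈ A, ∀ v : V, v ≠ 0 → x.1 v = v → x = 1) (h1 : 1 < Nat.card A)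
    {m : ℕ} (hm : Nat.card G = Nat.card A * m)
    (cop : Nat.Coprime (Nat.card A) (q * m * (q + 1) * (q ^ (n - 1) - 1))) (g : G) :
    χ.1 g * ((l g)⁻¹ : ℂˣ) = χ'.1 g * ((l' g)⁻¹ : ℂˣ) := by
  classical
  revert g
  by_contra hne
  have P := pair hσ S.wd S.herm L L' hne
  have s1 := S.sum_iso hω (L.Pj_Ev hσ).2 (L.trace_Ev hσ)
  have s2 := S.sum_iso hω' (L'.Pj_Ev hσ).2 (L'.trace_Ev hσ)
  rw [S.dim, S.card_mu, hm] at P
  set s : Finset V := {v | v ≠ 0 ∧ B v v = 0} with hs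
  set N := q ^ n * (Nat.card A * m) * (q + 1) ^ 2 with hN
  set Q := q ^ (n - 1) - 1
  have a0 : (Nat.card A : ℂ) ≠ 0 := Char.card_ne_zero_complex A
  have i1 : ∀ a : A, ∀ x ∈ s, a • x ∈ s := fun a x hx => by
    rw [hs, mem_filter] at hx ⊢
    refine ⟨mem_univ _, fun e => hx.2.1 (a.1.1.map_eq_zero_iff.1 e), ?_⟩
    exact (hG a.1.2 x x).trans hx.2.2
  have i2 : ∀ a : A, ∀ x ∈ s, a • x = x → a = 1 := fun a x hx e =>
    Subtype.ext (free a.1 a.2 x (mem_filter.1 hx).2.1 e)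
  have i3 : ∀ (l : G →* ℂˣ) (a : A) x, trace ℂ W (Ev ρ hG l * h (a • x)) = trace ℂ W (Ev ρ hG l * h x) :=
    fun l a x => Ev_inv S.wd l a.1.2 x
  have k1 : ∀ y ∈ s, IsIntegral ℤ ((N : ℂ) * Q / Nat.card A * trace ℂ W (Ev ρ hG l' * h y)) := fun y _ => by
    have := orb_sum s i1 i2 (Φ := fun x => (N : ℂ) * (trace ℂ W (Ev ρ hG l * h x) *
      trace ℂ W (Ev ρ hG l' * h y))) (fun a x => by rw [i3]) fun x _ => P x y
    rw [← mul_sum, ← sum_mul, s1] at this
    convert this using 1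
    ring
  have k2 := orb_sum s i1 i2 (fun a x => by rw [i3]) k1
  rw [← mul_sum, s2, show (N : ℂ) * Q / Nat.card A * Q / Nat.card A =
    (q ^ n * m * (q + 1) ^ 2 * Q ^ 2 : ℕ) / (Nat.card A : ℕ) by
      rw [hN]; push_cast; field_simp] at k2
  have d := Char.nat_dvd_of_isIntegral_div (by omega) k2
  have c1 := cop.coprime_mul_right_right
  have c2 := c1.coprime_mul_right_right
  have := Nat.Coprime.eq_one_of_dvd (((c2.coprime_mul_right_right.pow_right n).mul_right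
    c2.coprime_mul_left_right).mul_right (c1.coprime_mul_left_right.pow_right 2) |>.mul_right
    (cop.coprime_mul_left_right.pow_right 2)) d
  omega

/-- `G = K Z` with `K = ⨅ ker l_ω`; for `x ∈ K` the number of fixed vectors of `c x` does not depend on
`c ≠ 1`.  Write `g = x z`: some `c x` has no fixed vectors, so `x = 1` by `eq_of_eig`. -/
theorem not_all {g : G} {r : ℕ} (gr : g ^ r = 1) (rq : r ∣ q + 1) (rl : r < q) (gZ : g ∉ (sclG hZ).range)
    {A : Subgroup G} (free : ∀ x ∈ A, ∀ v : V, v ≠ 0 → x.1 v = v → x = 1)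
    (h1 : 1 < Nat.card A) {m : ℕ} (hm : Nat.card G = Nat.card A * m)
    (cop : Nat.Coprime (Nat.card A) (q * m * (q + 1) * (q ^ (n - 1) - 1)))
    (alpha : ∀ X : Subgroup G, X.Normal → A ≤ X → (sclG hZ).range ≤ X → X = ⊤) :
    ¬ ∀ ω, ω ≠ ω₀ → Spl A (cp (sclG hZ) (th ρ hG) ω.1) := by
  classical
  intro H
  choose l χ a1 a2 a3 using H
  have L : ∀ ω hω, Ln ρ hG hZ ω (l ω hω) (χ ω hω) := fun ω hω => ⟨a2 ω hω, a3 ω hω⟩
  let K : Subgroup G := ⨅ (ω) (hω : ω ≠ ω₀), (l ω hω).ker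
  have mK : ∀ {x}, x ∈ K ↔ ∀ ω hω, l ω hω x = 1 := by simp [K, Subgroup.mem_iInf]
  have Kn : K.Normal := ⟨fun x hx g => mK.2 fun ω hω =>
    (MonoidHom.normal_ker _).conj_mem _ (mK.1 hx ω hω) g⟩
  have Zc : (sclG hZ).range ≤ Subgroup.center G := by
    rintro _ ⟨c, rfl⟩; exact sclG_cen hZ c
  have Zn : (sclG hZ).range.Normal := ⟨fun x hx g => by
    rwa [Subgroup.mem_center_iff.1 (Zc hx) g, mul_inv_cancel_right]⟩
  have top := alpha (K ⊔ (sclG hZ).range) inferInstance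
    (le_sup_of_le_left fun x hx => mK.2 fun ω hω => a1 ω hω hx) le_sup_right
  obtain ⟨x, hx, _, ⟨z, rfl⟩, rfl⟩ := Subgroup.mem_sup_of_normal_right.1 (top.ge (Subgroup.mem_top g))
  obtain ⟨y, hy⟩ : ∃ y, ∀ ω, ω ≠ ω₀ → cp (sclG hZ) (th ρ hG) ω.1 x = y := by
    by_cases e : ∃ ω, ω ≠ ω₀
    · obtain ⟨ω₁, h₁⟩ := e
      refine ⟨cp (sclG hZ) (th ρ hG) ω₁.1 x, fun ω hω => ?_⟩
      have := S.twist_eq hω h₁ (L ω hω) (L ω₁ h₁) free h1 hm cop x
      rw [mK.1 hx, mK.1 hx, inv_one, Units.val_one, mul_one, mul_one] at this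
      rw [a3 ω hω, a3 ω₁ h₁, mK.1 hx, mK.1 hx, this]
    · exact ⟨0, fun ω hω => (e ⟨ω, hω⟩).elim⟩
  have key : ∀ c : Mu q F, c ≠ 1 → ‖cp (sclG hZ) (th ρ hG) ω₀.1 x - y‖ ^ 2 =
      Nat.card {v : V // ((c : Fˣ) : F) • x.1 v = v} := fun c hc => by
    have e1 := Char.sum_irr_mul_conj_of_not_isConj (G := Mu q F) (g := c) (h := 1)
      fun e => hc (isConj_one_left.1 e)
    simp only [vr_lin (G := Mu q F) mul_comm, map_one, mul_one] at e1
    have e2 : th ρ hG (sclG hZ c * x) = ω₀.1 c * (cp (sclG hZ) (th ρ hG) ω₀.1 x - y) := by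
      rw [← sum_cp (ι := sclG hZ) (θ := th ρ hG), sum_congr rfl fun ω _ => cp_cen (sclG_cen hZ) ω c x,
        ← add_sum_erase _ _ (mem_univ ω₀), sum_congr rfl fun ω hω => by rw [hy ω (ne_of_mem_erase hω)],
        ← sum_mul, sum_erase_eq_sub (mem_univ _), e1]
      ring
    have e3 : ‖ω₀.1 c‖ = 1 := by
      rw [CKS.irr_central_norm ω₀ (Subgroup.mem_center_iff.2 fun g => mul_comm _ _), vr_lin mul_comm,
        norm_one]
    have e4 : ‖th ρ hG (sclG hZ c * x)‖ ^ 2 = _ :=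
      S.wd.norm_sq S.herm (Subgroup.inclusion hG (sclG hZ c * x))
    rw [e2, norm_mul, e3, one_mul] at e4
    exact e4
  have r0 : 0 < r := Nat.pos_of_dvd_of_pos rq (Nat.succ_pos q)
  have cm : Commute x (sclG hZ z) := Subgroup.mem_center_iff.1 (sclG_cen hZ z) x
  have z1 : z ^ (q + 1) = 1 := by rw [← S.card_mu, pow_card_eq_one']
  have x1 : x ^ (q + 1) = 1 := by
    obtain ⟨k, hk⟩ := rq
    have := congrArg (· ^ k) gr
    simp only [← pow_mul, ← hk, one_pow] at this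
    rwa [cm.mul_pow, ← map_pow, z1, map_one, mul_one] at this
  obtain ⟨c, c1, cr⟩ : ∃ c : Mu q F, c ≠ z⁻¹ ∧ c ^ r ≠ 1 := by
    by_contra! e
    have e1 := (card_le_card (s := univ.erase z⁻¹) fun c hc => mem_filter.2
      ⟨mem_univ _, e c (ne_of_mem_erase hc)⟩).trans (IsCyclic.card_pow_eq_one_le (α := Mu q F) r0)
    rw [card_erase_of_mem (mem_univ _), card_univ, ← Nat.card_eq_fintype_card, S.card_mu] at e1
    omega
  have k1 := key (c * z) fun e => c1 (eq_inv_of_mul_eq_one_left e)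
  rw [Nat.card_eq_one_iff_exists.2 ⟨⟨0, by simp⟩, fun v => Subtype.ext ?_⟩] at k1
  · refine gZ ⟨z, ?_⟩
    rw [show x = 1 from Subtype.ext (LinearEquiv.ext (eq_of_eig S.card_mu (congrArg Subtype.val x1)
      fun c hc v hv => ?_)), one_mul]
    have k2 := key c hc
    rw [k1, Nat.cast_inj] at k2
    exact congrArg Subtype.val ((Nat.card_eq_one_iff_unique.1 k2.symm).1.elim ⟨v, hv⟩ ⟨0, by simp⟩)
  · have e : (sclG hZ c * (x * sclG hZ z)) • v.1 = v.1 := by
      rw [cm.eq, ← mul_assoc, ← map_mul]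
      exact v.2
    have e2 : (sclG hZ c * (x * sclG hZ z)) ^ r • v.1 = v.1 :=
      pow_mem (show _ ∈ MulAction.stabilizer G v.1 from e) r
    rw [Commute.mul_pow (Subgroup.mem_center_iff.1 (sclG_cen hZ c) _).symm, gr, mul_one, ← map_pow] at e2
    have : (((c ^ r : Mu q F) : Fˣ) : F) - 1 ≠ 0 := sub_ne_zero.2 (scl_fix cr)
    refine (smul_eq_zero.1 ?_).resolve_left this
    rw [sub_smul, one_smul]
    exact sub_eq_zero.2 e2

end WT

end Cfsg.Lib.UW
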